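/-
Sp_2m over a field of characteristic two: transvections `t a`, the elements `s a b`, and the root
elements `y a w κ` of the unipotent radical of the stabiliser of the point `a`.
-/
import Mathlib
import Cfsg.Agent.Lib.Classical.SympForm

set_option autoImplicit false
set_option linter.unusedSectionVars false
set_option linter.unusedSimpArgs false
set_option linter.unusedVariables false

namespace Cfsg.Agent.Lib.SpTwo.Basic

open Matrix Cfsg Cfsg.Agent.Lib.Classical.SympForm

variable {m : ℕ} {F : Type*} [Field F]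

/-- The natural module. -/
abbrev VV (m : ℕ) (F : Type*) : Type _ := Fin m ⊕ Fin m → F
/-- The symplectic group. -/
abbrev GG (m : ℕ) (F : Type*) [Field F] : Type _ := Matrix.symplecticGroup (Fin m) F

local notation "⟪" a ", " b "⟫" => sympForm m F a b

lemma fa_add_left (a b c : VV m F) : ⟪a + b, c⟫ = ⟪a, c⟫ + ⟪b, c⟫ :=
(sympBilin m F).map_add₂ a b c

lemma fa_add_right (a b c : VV m F) : ⟪a, b + c⟫ = ⟪a, b⟫ + ⟪a, c⟫ :=
  ((sympBilin m F) a).map_add b c

lemma fa_smul_left (k : F) (a c : VV m F) : ⟪k • a, c⟫ = k * ⟪a, c⟫ :=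
  (sympBilin m F).map_smul₂ k a c

lemma fa_smul_right (k : F) (a c : VV m F) : ⟪a, k • c⟫ = k * ⟪a, c⟫ :=
  ((sympBilin m F) a).map_smul k c

lemma fa_self (a : VV m F) : ⟪a, a⟫ = 0 := sympBilin_isAlt a

lemma fa_zero_left (a : VV m F) : ⟪(0 : VV m F), a⟫ = 0 := by
  have := fa_smul_left (m := m) (F := F) 0 a a
  simpa using this

lemma fa_zero_right (a : VV m F) : ⟪a, (0 : VV m F)⟫ = 0 := by
  have := fa_smul_right (m := m) (F := F) 0 a a
  simpa using this

section Two

variable [CharP F 2]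

lemma two_zero : (2 : F) = 0 := by exact_mod_cast CharP.cast_eq_zero F 2

lemma add_self' (a : F) : a + a = 0 := CharTwo.add_self_eq_zero a

lemma vadd_self (a : VV m F) : a + a = 0 := by
  funext i
  exact CharTwo.add_self_eq_zero _

lemma fa_comm (a b : VV m F) : ⟪a, b⟫ = ⟪b, a⟫ := by
  have h : ⟪a + b, a + b⟫ = 0 := fa_self _
  rw [fa_add_left, fa_add_right, fa_add_right, fa_self, fa_self] at h
  have h2 := add_self' ⟪b, a⟫
  linear_combination h - h2

end Two

/-- Action on the natural module. -/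
def ap (g : GG m F) (x : VV m F) : VV m F := g.1 *ᵥ x

lemma ap_mul (g h : GG m F) (x : VV m F) : ap (g * h) x = ap g (ap h x) := by
  simp [ap, Matrix.mulVec_mulVec]

@[simp] lemma ap_one (x : VV m F) : ap (1 : GG m F) x = x := by
  simp [ap]

lemma ap_add (g : GG m F) (x y : VV m F) : ap g (x + y) = ap g x + ap g y := by
  simp [ap, Matrix.mulVec_add]

lemma ap_smul (g : GG m F) (k : F) (x : VV m F) : ap g (k • x) = k • ap g x := by
  simp [ap, Matrix.mulVec_smul]

@[simp] lemma ap_zero (g : GG m F) : ap g (0 : VV m F) = 0 := by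
  simp [ap]

lemma ap_inv_ap (g : GG m F) (x : VV m F) : ap g⁻¹ (ap g x) = x := by
  rw [← ap_mul]; simp

lemma ap_ap_inv (g : GG m F) (x : VV m F) : ap g (ap g⁻¹ x) = x := by
  rw [← ap_mul]; simp

lemma form_ap (g : GG m F) (x y : VV m F) : ⟪ap g x, ap g y⟫ = ⟪x, y⟫ :=
  (mem_symplecticGroup_iff g.1).1 g.2 x y

lemma ap_eq_zero {g : GG m F} {x : VV m F} : ap g x = 0 ↔ x = 0 := by
  constructor
  · intro h
    have := ap_inv_ap g x
    rw [h, ap_zero] at this
    exact this.symm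
  · rintro rfl
    simp

lemma G_ext {g h : GG m F} (H : ∀ x, ap g x = ap h x) : g = h := by
  apply spHom_injective
  ext1 x
  exact H x

/-- Transvection with parameter. -/
def tt (a : VV m F) (c : F) : GG m F := ⟨Cfsg.sympTransvection m a c, sympTransvection_mem a c⟩

lemma ap_tt (a : VV m F) (c : F) (x : VV m F) : ap (tt a c) x = x + (c * ⟪x, a⟫) • a :=
  sympTransvection_mulVec a c x

lemma tt_mul (a : VV m F) (c d : F) : tt a c * tt a d = tt a (c + d) :=
  Subtype.ext (sympTransvection_mul a c d)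

@[simp] lemma tt_zero_right (a : VV m F) : tt a (0 : F) = 1 := by
  apply G_ext
  intro x
  rw [ap_tt]
  simp

@[simp] lemma tt_zero_left (c : F) : tt (0 : VV m F) c = 1 := by
  apply G_ext
  intro x
  rw [ap_tt]
  simp

lemma tt_conj (g : GG m F) (a : VV m F) (c : F) : g * tt a c * g⁻¹ = tt (ap g a) c :=
  Subtype.ext (sp_mul_sympTransvection_mul_inv g a c)

/-- The transvection `x ↦ x + ⟪x,a⟫ a`. -/
def t (a : VV m F) : GG m F := tt a 1

lemma ap_t (a x : VV m F) : ap (t a) x = x + ⟪x, a⟫ • a := by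
  rw [t, ap_tt, one_mul]

@[simp] lemma t_zero : t (0 : VV m F) = 1 := tt_zero_left 1

lemma t_conj (g : GG m F) (a : VV m F) : g * t a * g⁻¹ = t (ap g a) := tt_conj g a 1

section Two

variable [CharP F 2]

lemma t_mul_self (a : VV m F) : t a * t a = 1 := by
  rw [t, tt_mul, add_self', tt_zero_right]

lemma t_inv (a : VV m F) : (t a)⁻¹ = t a := inv_eq_of_mul_eq_one_left (t_mul_self a)

lemma tt_inv (a : VV m F) (c : F) : (tt a c)⁻¹ = tt a c :=
  inv_eq_of_mul_eq_one_left (by rw [tt_mul, add_self', tt_zero_right])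

lemma tt_comm {a b : VV m F} (h : ⟪a, b⟫ = 0) (c d : F) : tt a c * tt b d = tt b d * tt a c := by
  apply G_ext
  intro x
  have h' : ⟪b, a⟫ = 0 := by rw [fa_comm]; exact h
  simp only [ap_mul, ap_tt, fa_add_left, fa_smul_left, h, h', mul_zero, add_zero]
  module

lemma t_comm {a b : VV m F} (h : ⟪a, b⟫ = 0) : t a * t b = t b * t a := tt_comm h 1 1

/-- `s a b`: the product of the three transvections of the plane `⟨a,b⟩`. -/
def s (a b : VV m F) : GG m F := t a * t b * t (a + b)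

lemma ap_s {a b : VV m F} (h : ⟪a, b⟫ = 0) (x : VV m F) :
    ap (s a b) x = x + ⟪x, a⟫ • b + ⟪x, b⟫ • a := by
  have h' : ⟪b, a⟫ = 0 := by rw [fa_comm]; exact h
  have h2 := two_zero (F := F)
  simp only [s, ap_mul, ap_t, fa_add_left, fa_add_right, fa_smul_left, fa_self, h, h', mul_zero,
    add_zero, zero_add]
  funext i
  simp only [Pi.add_apply, Pi.smul_apply, smul_eq_mul]
  linear_combination (⟪x, a⟫ * a i + ⟪x, b⟫ * b i) * h2

lemma s_comm (a b : VV m F) (h : ⟪a, b⟫ = 0) : s a b = s b a := by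
  apply G_ext
  intro x
  have h' : ⟪b, a⟫ = 0 := by rw [fa_comm]; exact h
  rw [ap_s h, ap_s h']
  module

lemma s_conj (g : GG m F) (a b : VV m F) : g * s a b * g⁻¹ = s (ap g a) (ap g b) := by
  have e : g * (t a * t b * t (a + b)) * g⁻¹
      = (g * t a * g⁻¹) * (g * t b * g⁻¹) * (g * t (a + b) * g⁻¹) := by group
  rw [s, e, t_conj, t_conj, t_conj, ap_add]
  rfl

/-- The root elements. -/
def y (a w : VV m F) (κ : F) : GG m F := tt a κ * s a w

lemma y_zero_right (a w : VV m F) : y a w 0 = s a w := by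
  simp [y]

lemma y_one_right (a w : VV m F) : y a w 1 = t a * s a w := rfl

lemma ap_y {a w : VV m F} (h : ⟪a, w⟫ = 0) (κ : F) (x : VV m F) :
    ap (y a w κ) x = x + ⟪x, a⟫ • w + ⟪x, w⟫ • a + (κ * ⟪x, a⟫) • a := by
  have h' : ⟪w, a⟫ = 0 := by rw [fa_comm]; exact h
  simp only [y, ap_mul, ap_s h, ap_tt, fa_add_left, fa_smul_left, fa_self, h', mul_zero, add_zero]

lemma y_mul {a w w' : VV m F} (h : ⟪a, w⟫ = 0) (h' : ⟪a, w'⟫ = 0) (κ κ' : F) :
    y a w κ * y a w' κ' = y a (w + w') (κ + κ' + ⟪w, w'⟫) := by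
  apply G_ext
  intro x
  have hw : ⟪w, a⟫ = 0 := by rw [fa_comm]; exact h
  have hw' : ⟪w', a⟫ = 0 := by rw [fa_comm]; exact h'
  have hc : ⟪w', w⟫ = ⟪w, w'⟫ := fa_comm _ _
  have hww : ⟪a, w + w'⟫ = 0 := by rw [fa_add_right, h, h', add_zero]
  rw [ap_mul, ap_y h, ap_y h', ap_y hww]
  simp only [fa_add_left, fa_add_right, fa_smul_left, fa_self, hw, hw', h, h', hc, mul_zero,
    add_zero]
  module

lemma y_conj (g : GG m F) (a w : VV m F) (κ : F) :
    g * y a w κ * g⁻¹ = y (ap g a) (ap g w) κ := by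
  have e : g * (tt a κ * s a w) * g⁻¹ = (g * tt a κ * g⁻¹) * (g * s a w * g⁻¹) := by group
  rw [y, e, tt_conj, s_conj, y]

lemma y_zero_vec (a : VV m F) (κ : F) : y a 0 κ = tt a κ := by
  apply G_ext
  intro x
  rw [ap_y (fa_zero_right a), ap_tt]
  simp only [fa_zero_right, smul_zero, zero_smul, add_zero]

lemma y_zero_zero (a : VV m F) : y a 0 0 = 1 := by
  rw [y_zero_vec, tt_zero_right]

lemma tt_mul_y (a w : VV m F) (c κ : F) : tt a c * y a w κ = y a w (c + κ) := by
  rw [y, ← mul_assoc, tt_mul, y]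

lemma y_mul_tt {a w : VV m F} (h : ⟪a, w⟫ = 0) (c κ : F) : y a w κ * tt a c = y a w (κ + c) := by
  have := y_mul (a := a) (w := w) (w' := 0) h (fa_zero_right a) κ c
  rw [y_zero_vec, fa_zero_right, add_zero, add_zero] at this
  exact this

lemma y_comm_tt {a w : VV m F} (h : ⟪a, w⟫ = 0) (c κ : F) : tt a c * y a w κ = y a w κ * tt a c := by
  rw [tt_mul_y, y_mul_tt h, add_comm]

lemma y_comm {a w w' : VV m F} (h : ⟪a, w⟫ = 0) (h' : ⟪a, w'⟫ = 0) (κ κ' : F) :
    y a w κ * y a w' κ' = y a w' κ' * y a w κ := by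
  rw [y_mul h h', y_mul h' h, add_comm w, add_comm κ, fa_comm w w']

lemma y_inv {a w : VV m F} (h : ⟪a, w⟫ = 0) (κ : F) : (y a w κ)⁻¹ = y a w κ := by
  apply inv_eq_of_mul_eq_one_left
  rw [y_mul h h, vadd_self, add_self', fa_self, add_zero, y_zero_zero]

lemma y_add_self {a w : VV m F} (h : ⟪a, w⟫ = 0) (κ : F) : y a (w + a) κ = y a w κ := by
  apply G_ext
  intro x
  have h1 : ⟪a, w + a⟫ = 0 := by rw [fa_add_right, h, fa_self, add_zero]
  have h2 := two_zero (F := F)
  rw [ap_y h1, ap_y h]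
  simp only [fa_add_right]
  funext i
  simp only [Pi.add_apply, Pi.smul_apply, smul_eq_mul]
  linear_combination (⟪x, a⟫ * a i) * h2

/-- The `S_3` relation. -/
lemma t_relation {a b : VV m F} (h : ⟪a, b⟫ = 1) : t a * t (a + b) = t b * t a := by
  apply G_ext
  intro x
  have h' : ⟪b, a⟫ = 1 := by rw [fa_comm]; exact h
  have h2 := two_zero (F := F)
  simp only [ap_mul, ap_t, fa_add_left, fa_add_right, fa_smul_left, fa_self, h, h', mul_zero,
    add_zero, zero_add, mul_one]
  funext i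
  simp only [Pi.add_apply, Pi.smul_apply, smul_eq_mul]
  linear_combination (⟪x, a⟫ * a i + ⟪x, b⟫ * a i) * h2

end Two

end Cfsg.Agent.Lib.SpTwo.Basic
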