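/-
Gauss sum of a quadratic form over a field with two elements, done with integer-valued signs.
-/
import Mathlib

set_option autoImplicit false
set_option linter.unusedSectionVars false
set_option linter.unusedSimpArgs false
set_option linter.unusedVariables false

namespace Cfsg.Agent.Lib.SpTwo.Gauss

open scoped _root_.Classical

variable {F : Type*} [Field F]

/-- The sign character. -/
noncomputable def chi (a : F) : ℤ := if a = 0 then 1 else -1

@[simp] lemma chi_zero : chi (0 : F) = 1 := by simp [chi]

@[simp] lemma chi_one : chi (1 : F) = -1 := by simp [chi]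

lemma chi_add (h01 : ∀ a : F, a = 0 ∨ a = 1) (h2 : (2 : F) = 0) (a b : F) :
    chi (a + b) = chi a * chi b := by
  have e : (1 : F) + 1 = 0 := by linear_combination h2
  rcases h01 a with rfl | rfl <;> rcases h01 b with rfl | rfl <;> simp [e]

variable {W : Type*} [AddCommGroup W] [Fintype W]

theorem gauss_sq (h01 : ∀ a : F, a = 0 ∨ a = 1) (h2 : (2 : F) = 0) (g : W → F) (b : W → W → F)
    (hg : ∀ w w', g (w + w') = g w + g w' + b w w')
    (hb : ∀ w w' c, b (w + w') c = b w c + b w' c)
    (hnd : ∀ c, c ≠ 0 → ∃ w, b w c = 1) :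
    (∑ w, chi (g w)) ^ 2 = Fintype.card W := by
  have hb0 : ∀ c, b 0 c = 0 := by
    intro c
    have := hb 0 0 c
    rw [add_zero] at this
    linear_combination -this
  have hg0 : g 0 = 0 := by
    have := hg 0 0
    rw [add_zero, hb0] at this
    linear_combination -this
  have hbw0 : ∀ w, b w 0 = 0 := by
    intro w
    have := hg w 0
    rw [add_zero, hg0] at this
    linear_combination -this
  have inner : ∀ c, c ≠ 0 → ∑ w, chi (b w c) = 0 := by
    intro c hc
    obtain ⟨w0, hw0⟩ := hnd c hc
    have h1 : ∑ w, chi (b w c) = ∑ w, chi (b (w0 + w) c) :=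
      (Equiv.sum_comp (Equiv.addLeft w0) (fun w => chi (b w c))).symm
    have h3 : ∑ w, chi (b (w0 + w) c) = - ∑ w, chi (b w c) := by
      rw [← Finset.sum_neg_distrib]
      refine Finset.sum_congr rfl fun w _ => ?_
      rw [hb, hw0, chi_add h01 h2, chi_one]
      ring
    omega
  have expand : ∀ w c, chi (g w) * chi (g (w + c)) = chi (g c) * chi (b w c) := by
    intro w c
    rw [← chi_add h01 h2, ← chi_add h01 h2, hg]
    congr 1
    linear_combination g w * h2
  calc (∑ w, chi (g w)) ^ 2
      = ∑ w, ∑ c, chi (g w) * chi (g (w + c)) := by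
        rw [sq, Finset.sum_mul]
        refine Finset.sum_congr rfl fun w _ => ?_
        rw [Finset.mul_sum]
        exact (Equiv.sum_comp (Equiv.addLeft w) (fun w' => chi (g w) * chi (g w'))).symm
    _ = ∑ c, ∑ w, chi (g c) * chi (b w c) := by
        rw [Finset.sum_comm]
        refine Finset.sum_congr rfl fun c _ => ?_
        exact Finset.sum_congr rfl fun w _ => expand w c
    _ = ∑ c, chi (g c) * ∑ w, chi (b w c) := by
        refine Finset.sum_congr rfl fun c _ => ?_
        rw [Finset.mul_sum]
    _ = Fintype.card W := by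
        rw [Finset.sum_eq_single 0]
        · simp [hg0, hbw0]
        · intro c _ hc
          rw [inner c hc, mul_zero]
        · simp

lemma sum_chi_eq (g : W → F) :
    ∑ w, chi (g w) = 2 * ((Finset.univ.filter fun w => g w = 0).card : ℤ) - Fintype.card W := by
  have h : ∀ w, chi (g w) = 2 * (if g w = 0 then (1 : ℤ) else 0) - 1 := by
    intro w
    by_cases hw : g w = 0 <;> simp [chi, hw]
  simp only [h]
  rw [Finset.sum_sub_distrib, ← Finset.mul_sum, Finset.sum_boole]
  simp

/-- A quadratic form with non-degenerate polarisation has many zeros. -/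
theorem card_zeros (h01 : ∀ a : F, a = 0 ∨ a = 1) (h2 : (2 : F) = 0) (g : W → F) (b : W → W → F)
    (hg : ∀ w w', g (w + w') = g w + g w' + b w w')
    (hb : ∀ w w' c, b (w + w') c = b w c + b w' c)
    (hnd : ∀ c, c ≠ 0 → ∃ w, b w c = 1) {P : ℕ} (hP : Fintype.card W = P ^ 2) :
    P ^ 2 ≤ 2 * (Finset.univ.filter fun w => g w = 0).card + P := by
  have h1 := gauss_sq h01 h2 g b hg hb hnd
  rw [sum_chi_eq, hP] at h1
  push_cast at h1
  set z : ℤ := ((Finset.univ.filter fun w => g w = 0).card : ℤ) with hz
  have h3 : (P : ℤ) ^ 2 ≤ 2 * z + P := by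
    have hP0 : (0 : ℤ) ≤ P := by positivity
    by_contra hc
    push Not at hc
    have : 2 * z - (P : ℤ) ^ 2 < -(P : ℤ) := by linarith
    nlinarith
  have h4 : ((P ^ 2 : ℕ) : ℤ) ≤ ((2 * (Finset.univ.filter fun w => g w = 0).card + P : ℕ) : ℤ) := by
    push_cast
    rw [← hz]
    exact h3
  exact_mod_cast h4

end Cfsg.Agent.Lib.SpTwo.Gauss
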