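/-
The geometric part of the minimal index theorem for Sp_2m(2): a subgroup `K` whose root elements
behave as forced by a small index is the whole group.
-/
import Mathlib
import Cfsg.Agent.Lib.SpTwo.Basic
import Cfsg.Agent.Lib.Classical.SympSimple

set_option autoImplicit false
set_option linter.unusedSectionVars false
set_option linter.unusedSimpArgs false
set_option linter.unusedVariables false

namespace Cfsg.Agent.Lib.SpTwo.Geom

open Matrix Cfsg Cfsg.Agent.Lib.Classical.SympForm Cfsg.Agent.Lib.Classical.SympSimple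
open Cfsg.Agent.Lib.SpTwo.Basic

variable {m : ℕ} {F : Type*} [Field F] [CharP F 2]

local notation "⟪" a ", " b "⟫" => sympForm m F a b

/-- The standard vectors are moved to any independent isotropic pair. -/
lemma exists_map_pair (h01 : ∀ a : F, a = 0 ∨ a = 1) {i j : Fin m} (hij : i ≠ j) {a w : VV m F}
    (ha : a ≠ 0) (hw : w ≠ 0) (haw : a ≠ w) (h : ⟪a, w⟫ = 0) :
    ∃ g : GG m F, ap g (eL m F i) = a ∧ ap g (eL m F j) = w := by
  have hind : LinearIndependent F ![a, w] := by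
    rw [LinearIndependent.pair_iff]
    intro x y hxy
    rcases h01 x with rfl | rfl <;> rcases h01 y with rfl | rfl
    · exact ⟨rfl, rfl⟩
    · simp at hxy
      exact absurd hxy hw
    · simp at hxy
      exact absurd hxy ha
    · exfalso
      apply haw
      simp only [one_smul] at hxy
      have := vadd_self w
      have h2 : a + w = w + w := by rw [hxy, this]
      exact add_right_cancel h2
  obtain ⟨A, -, hA⟩ := exists_closure_family ![eL m F i, eL m F j] ![a, w]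
    (independent_eL i j hij) hind (by
      intro p q
      have h' : ⟪w, a⟫ = 0 := by rw [fa_comm]; exact h
      fin_cases p <;> fin_cases q <;> simp [form_eL_eL, h, h', fa_self])
  exact ⟨A, hA 0, hA 1⟩

lemma exists_form_one (h01 : ∀ a : F, a = 0 ∨ a = 1) {a : VV m F} (ha : a ≠ 0) :
    ∃ u : VV m F, ⟪u, a⟫ = 1 := by
  have h1 : ∃ u : VV m F, ⟪u, a⟫ ≠ 0 := by
    by_contra hc
    push Not at hc
    exact ha (sympBilin_nondegenerate.2 a (fun x => by
      simpa using hc x))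
  obtain ⟨u, hu⟩ := h1
  exact ⟨u, (h01 _).resolve_left hu⟩

section KK

variable (K : Subgroup (GG m F))

lemma y_unique {a w : VV m F} (h : ⟪a, w⟫ = 0) (h0 : y a w 0 ∈ K) (h1 : y a w 1 ∈ K) : t a ∈ K := by
  have := K.mul_mem h0 h1
  rw [y_mul h h, vadd_self, fa_self, zero_add, add_zero, y_zero_vec] at this
  exact this

/-- Hyperbolic pair in `K`: the whole group. -/
lemma top_of_hyperbolic (h01 : ∀ a : F, a = 0 ∨ a = 1)
    (P2 : ∀ a : VV m F, a ≠ 0 → t a ∈ K → ∀ w, ⟪a, w⟫ = 0 → s a w ∈ K)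
    {u v : VV m F} (huv : ⟪u, v⟫ = 1) (hu : t u ∈ K) (hv : t v ∈ K) : K = ⊤ := by
  have hvu : ⟪v, u⟫ = 1 := by rw [fa_comm]; exact huv
  -- the key step, stated for both orders
  have key : ∀ u v : VV m F, ⟪u, v⟫ = 1 → t u ∈ K → t v ∈ K →
      ∀ w : VV m F, ⟪w, u⟫ = 0 → ⟪w, v⟫ = 0 → t w ∈ K ∧ t (v + w) ∈ K := by
    intro u v huv hu hv w hwu hwv
    have hvu : ⟪v, u⟫ = 1 := by rw [fa_comm]; exact huv
    have hv0 : v ≠ 0 := by
      rintro rfl
      rw [fa_zero_right] at huv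
      exact zero_ne_one huv
    have hvw : ⟪v, w⟫ = 0 := by rw [fa_comm]; exact hwv
    have h1 : s v w ∈ K := P2 v hv0 hv w hvw
    have h2 : t w * t (v + w) ∈ K := by
      have := K.mul_mem hv h1
      rw [s, ← mul_assoc, ← mul_assoc, t_mul_self, one_mul] at this
      exact this
    have ap1 : ap (t u) w = w := by
      rw [ap_t, hwu, zero_smul, add_zero]
    have ap2 : ap (t u) (v + w) = v + w + u := by
      rw [ap_t, fa_add_left, hvu, hwu, add_zero, one_smul]
    have h3 : t w * t (v + w + u) ∈ K := by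
      have := K.mul_mem (K.mul_mem hu h2) (K.inv_mem hu)
      have e : t u * (t w * t (v + w)) * (t u)⁻¹
          = (t u * t w * (t u)⁻¹) * (t u * t (v + w) * (t u)⁻¹) := by group
      rw [e, t_conj, t_conj, ap1, ap2] at this
      exact this
    have hc : ⟪w, v + w⟫ = 0 := by rw [fa_add_right, hwv, fa_self, add_zero]
    have h4 : t (v + w) * t (v + w + u) ∈ K := by
      have := K.mul_mem h2 h3
      have e : t w * t (v + w) * (t w * t (v + w + u)) = t (v + w) * t (v + w + u) := by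
        rw [t_comm hc, mul_assoc, ← mul_assoc (t w) (t w), t_mul_self, one_mul]
      rw [e] at this
      exact this
    have hab : ⟪v + w, u⟫ = 1 := by rw [fa_add_left, hvu, hwu, add_zero]
    rw [t_relation hab] at h4
    have h5 : t (v + w) ∈ K := by
      have := K.mul_mem hu h4
      rw [← mul_assoc, t_mul_self, one_mul] at this
      exact this
    refine ⟨?_, h5⟩
    have := K.mul_mem h2 h5
    rw [mul_assoc, t_mul_self, mul_one] at this
    exact this
  have allt : ∀ x : VV m F, t x ∈ K := by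
    intro x
    set α := ⟪x, v⟫ with hα
    set β := ⟪x, u⟫ with hβ
    set w := x + α • u + β • v with hw
    have h2 := two_zero (F := F)
    have hwu : ⟪w, u⟫ = 0 := by
      rw [hw, fa_add_left, fa_add_left, fa_smul_left, fa_smul_left, fa_self, hvu, ← hβ]
      linear_combination β * h2
    have hwv : ⟪w, v⟫ = 0 := by
      rw [hw, fa_add_left, fa_add_left, fa_smul_left, fa_smul_left, fa_self, huv, ← hα]
      linear_combination α * h2
    have hx : x = w + α • u + β • v := by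
      rw [hw]
      funext i
      simp only [Pi.add_apply, Pi.smul_apply, smul_eq_mul]
      linear_combination (-(α * u i) - β * v i) * h2
    obtain ⟨k1, k2⟩ := key u v huv hu hv w hwu hwv
    obtain ⟨k3, k4⟩ := key v u hvu hv hu w hwv hwu
    rcases h01 α with h | h <;> rcases h01 β with h' | h' <;> rw [hx, h, h']
    · simpa using k1
    · simpa [add_comm] using k2
    · simpa [add_comm] using k4
    · have := K.mul_mem (K.mul_mem hu k2) (K.inv_mem hu)
      rw [t_conj, ap_t, fa_add_left, hvu, hwu, add_zero, one_smul] at this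
      have e : w + (1 : F) • u + (1 : F) • v = v + w + u := by
        simp only [one_smul]
        abel
      rw [e]
      exact this
  rw [eq_top_iff, ← closure_transvectionSet (m := m) (F := F), Subgroup.closure_le]
  rintro A ⟨w, c, hA⟩
  rcases h01 c with rfl | rfl
  · have : A = tt w 0 := Subtype.ext hA
    rw [this, tt_zero_right]
    exact K.one_mem
  · have : A = t w := Subtype.ext hA
    rw [this]
    exact allt w

/-- No transvection lies in a proper subgroup with the two properties. -/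
lemma no_transvection (hm : 2 ≤ m) (h01 : ∀ a : F, a = 0 ∨ a = 1) (hK : K ≠ ⊤)
    (P1 : ∀ a : VV m F, a ≠ 0 → t a ∉ K → ∀ w, ⟪a, w⟫ = 0 → ∃ κ, y a w κ ∈ K)
    (P2 : ∀ a : VV m F, a ≠ 0 → t a ∈ K → ∀ w, ⟪a, w⟫ = 0 → s a w ∈ K)
    {v : VV m F} (hv0 : v ≠ 0) (hv : t v ∈ K) : False := by
  obtain ⟨u, huv⟩ := exists_form_one h01 hv0
  have hvu : ⟪v, u⟫ = 1 := by rw [fa_comm]; exact huv
  have hpair : ∀ {a b : VV m F}, ⟪a, b⟫ = 1 → t a ∈ K → t b ∈ K → False :=
    fun hab ha hb => hK (top_of_hyperbolic K h01 P2 hab ha hb)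
  by_cases hu : t u ∈ K
  · exact hpair huv hu hv
  have hu0 : u ≠ 0 := by
    rintro rfl
    rw [fa_zero_left] at huv
    exact zero_ne_one huv
  -- the two-sided perp
  have step : ∀ w : VV m F, ⟪w, u⟫ = 0 → ⟪w, v⟫ = 0 → t (v + w) ∈ K := by
    intro w hwu hwv
    have huw : ⟪u, w⟫ = 0 := by rw [fa_comm]; exact hwu
    obtain ⟨κ, hκ⟩ := P1 u hu0 hu w huw
    have h1 := K.mul_mem (K.mul_mem hκ hv) (K.inv_mem hκ)
    have hvw : ⟪v, w⟫ = 0 := by rw [fa_comm]; exact hwv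
    rw [t_conj, ap_y huw, hvu, hvw] at h1
    simp only [zero_smul, add_zero, one_smul, mul_one] at h1
    rcases h01 κ with rfl | rfl
    · simpa using h1
    · exfalso
      simp only [one_smul] at h1
      refine hpair ?_ h1 hv
      rw [fa_add_left, fa_add_left, fa_self, hwv, huv]
      ring
  -- a hyperbolic pair in the perp
  let i0 : Fin m := ⟨0, by omega⟩
  let i1 : Fin m := ⟨1, by omega⟩
  have h01' : i0 ≠ i1 := by simp [i0, i1, Fin.ext_iff]
  obtain ⟨A, -, hA, hA1⟩ := exists_closure_hyperbolic (m := m) (F := F) (eR m F i0) (eL m F i0) u v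
    (by rw [form_eR_eL, if_pos rfl]) huv
  set w := ap A (eL m F i1) with hw
  set w' := ap A (eR m F i1) with hw'
  have e1 : ap A (eR m F i0) = u := hA
  have e2 : ap A (eL m F i0) = v := hA1
  have hwu : ⟪w, u⟫ = 0 := by
    rw [hw, ← e1, form_ap, fa_comm, form_eR_eL, if_neg h01'.symm.symm]
  have hwv : ⟪w, v⟫ = 0 := by
    rw [hw, ← e2, form_ap, form_eL_eL]
  have hw'u : ⟪w', u⟫ = 0 := by
    rw [hw', ← e1, form_ap, form_eR_eR]
  have hw'v : ⟪w', v⟫ = 0 := by
    rw [hw', ← e2, form_ap, form_eR_eL, if_neg h01'.symm]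
  have hww' : ⟪w', w⟫ = 1 := by
    rw [hw, hw', form_ap, form_eR_eL, if_pos rfl]
  refine hpair ?_ (step w' hw'u hw'v) (step w hwu hwv)
  rw [fa_add_left, fa_add_right, fa_add_right, fa_self, hww', fa_comm v w, hwv, hw'v]
  ring

lemma R_step {a b z e : VV m F} (hab : ⟪a, b⟫ = 0) (haz : ⟪a, z⟫ = 0) (hbz : ⟪b, z⟫ = 0)
    (heb : ⟪e, b⟫ = 1) (hea : ⟪e, a⟫ = 0) (hez : ⟪e, z⟫ = 0) {κ κ' : F}
    (hA : y a e κ ∈ K) (hB : y b z κ' ∈ K) : y a (z + κ' • b) κ' ∈ K := by
  have h2 := two_zero (F := F)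
  have hae : ⟪a, e⟫ = 0 := by rw [fa_comm]; exact hea
  have h1 := K.mul_mem hA (K.mul_mem (K.mul_mem hB hA) (K.inv_mem hB))
  rw [y_conj] at h1
  have e1 : ap (y b z κ') a = a := by
    rw [ap_y hbz, hab, haz]
    simp
  have e2 : ap (y b z κ') e = e + z + κ' • b := by
    rw [ap_y hbz, heb, hez]
    simp
  rw [e1, e2] at h1
  have hae' : ⟪a, e + z + κ' • b⟫ = 0 := by
    rw [fa_add_right, fa_add_right, fa_smul_right, hae, haz, hab]
    simp
  rw [y_mul hae hae'] at h1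
  have e3 : e + (e + z + κ' • b) = z + κ' • b := by
    funext i
    simp only [Pi.add_apply, Pi.smul_apply, smul_eq_mul]
    linear_combination (e i) * h2
  have e4 : κ + κ + ⟪e, e + z + κ' • b⟫ = κ' := by
    rw [fa_add_right, fa_add_right, fa_smul_right, fa_self, hez, heb]
    linear_combination κ * h2
  rw [e3, e4] at h1
  exact h1

lemma Z_step (P1 : ∀ a : VV m F, a ≠ 0 → t a ∉ K → ∀ w, ⟪a, w⟫ = 0 → ∃ κ, y a w κ ∈ K)
    (hnot : ∀ a : VV m F, a ≠ 0 → t a ∉ K)
    {a b z e : VV m F} (ha : a ≠ 0) (hab : ⟪a, b⟫ = 0) (haz : ⟪a, z⟫ = 0) (hbz : ⟪b, z⟫ = 0)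
    (heb : ⟪e, b⟫ = 1) (hea : ⟪e, a⟫ = 0) (hez : ⟪e, z⟫ = 0) (hs : s b z ∈ K) : s a z ∈ K := by
  have hae : ⟪a, e⟫ = 0 := by rw [fa_comm]; exact hea
  obtain ⟨κ, hκ⟩ := P1 a ha (hnot a ha) e hae
  have := R_step K hab haz hbz heb hea hez (κ' := 0) hκ (by rw [y_zero_right]; exact hs)
  simpa [y_zero_right] using this

lemma frame_main (h01 : ∀ a : F, a = 0 ∨ a = 1)
    (P1 : ∀ a : VV m F, a ≠ 0 → t a ∉ K → ∀ w, ⟪a, w⟫ = 0 → ∃ κ, y a w κ ∈ K)
    (hnot : ∀ a : VV m F, a ≠ 0 → t a ∉ K)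
    {a0 a1 a2 e0 e1 : VV m F} (h0 : a0 ≠ 0) (h1 : a1 ≠ 0) (h2 : a2 ≠ 0)
    (h01o : ⟪a0, a1⟫ = 0) (h02o : ⟪a0, a2⟫ = 0) (h12o : ⟪a1, a2⟫ = 0)
    (he00 : ⟪e0, a0⟫ = 1) (he01 : ⟪e0, a1⟫ = 0) (he02 : ⟪e0, a2⟫ = 0)
    (he10 : ⟪e1, a0⟫ = 0) (he11 : ⟪e1, a1⟫ = 1) (he12 : ⟪e1, a2⟫ = 0) : s a1 a2 ∈ K := by
  by_contra hn
  have h10o : ⟪a1, a0⟫ = 0 := by rw [fa_comm]; exact h01o
  have h20o : ⟪a2, a0⟫ = 0 := by rw [fa_comm]; exact h02o
  have h21o : ⟪a2, a1⟫ = 0 := by rw [fa_comm]; exact h12o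
  have n1 : s a0 a2 ∉ K := fun hc =>
    hn (Z_step K P1 hnot h1 h10o h12o h02o he00 he01 he02 hc)
  have n2 : s a0 a1 ∉ K := by
    intro hc
    rw [s_comm _ _ h01o] at hc
    have := Z_step K P1 hnot h2 h21o h20o h10o he11 he12 he10 hc
    rw [s_comm _ _ h20o] at this
    exact n1 this
  have hy : ∀ w : VV m F, ⟪a0, w⟫ = 0 → s a0 w ∉ K → y a0 w 1 ∈ K := by
    intro w hw hsw
    obtain ⟨κ, hκ⟩ := P1 a0 h0 (hnot a0 h0) w hw
    rcases h01 κ with rfl | rfl
    · rw [y_zero_right] at hκ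
      exact absurd hκ hsw
    · exact hκ
  have y2 := hy a2 h02o n1
  have y1 := hy a1 h01o n2
  have h1' : ∃ κ, y a1 a2 κ ∈ K := P1 a1 h1 (hnot a1 h1) a2 h12o
  have y12 : y a1 a2 1 ∈ K := by
    obtain ⟨κ, hκ⟩ := h1'
    rcases h01 κ with rfl | rfl
    · rw [y_zero_right] at hκ
      exact absurd hκ hn
    · exact hκ
  have hae : ⟪a0, e1⟫ = 0 := by rw [fa_comm]; exact he10
  obtain ⟨κ, hκ⟩ := P1 a0 h0 (hnot a0 h0) e1 hae
  have r := R_step K h01o h02o h12o he11 he10 he12 hκ y12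
  rw [one_smul] at r
  have m1 := K.mul_mem y2 y1
  have h2' := two_zero (F := F)
  rw [y_mul h02o h01o, h21o, add_zero, CharTwo.add_self_eq_zero] at m1
  exact hnot a0 h0 (y_unique K (by rw [fa_add_right, h02o, h01o, add_zero]) m1 r)

/-- The geometric theorem. -/
theorem no_small (hm : 3 ≤ m) (h01 : ∀ a : F, a = 0 ∨ a = 1) (hK : K ≠ ⊤)
    (P1 : ∀ a : VV m F, a ≠ 0 → t a ∉ K → ∀ w, ⟪a, w⟫ = 0 → ∃ κ, y a w κ ∈ K)
    (P2 : ∀ a : VV m F, a ≠ 0 → t a ∈ K → ∀ w, ⟪a, w⟫ = 0 → s a w ∈ K) : False := by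
  have hnot : ∀ a : VV m F, a ≠ 0 → t a ∉ K := fun a ha h =>
    no_transvection K (by omega) h01 hK P1 P2 ha h
  let i0 : Fin m := ⟨0, by omega⟩
  let i1 : Fin m := ⟨1, by omega⟩
  let i2 : Fin m := ⟨2, by omega⟩
  have h01' : i0 ≠ i1 := by simp [i0, i1, Fin.ext_iff]
  have h02' : i0 ≠ i2 := by simp [i0, i2, Fin.ext_iff]
  have h12' : i1 ≠ i2 := by simp [i1, i2, Fin.ext_iff]
  -- every `s a w` with `w ⟂ a` lies in `K`
  have all : ∀ a w : VV m F, a ≠ 0 → ⟪a, w⟫ = 0 → s a w ∈ K := by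
    intro a w ha hw
    by_cases hw0 : w = 0
    · subst hw0
      rw [← y_zero_right, y_zero_zero]
      exact K.one_mem
    by_cases haw : a = w
    · subst haw
      have e := y_add_self (a := a) (w := 0) (fa_zero_right a) 0
      rw [zero_add, y_zero_zero] at e
      rw [← y_zero_right, e]
      exact K.one_mem
    obtain ⟨g, hg0, hg1⟩ := exists_map_pair h01 h01' ha hw0 haw hw
    set z := ap g (eL m F i2) with hz
    have hz0 : z ≠ 0 := by
      intro hc
      have h3 : eL m F i2 = 0 := ap_eq_zero.1 hc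
      have := congrFun h3 (Sum.inl i2)
      simp [eL] at this
    have h1z : ⟪w, z⟫ = 0 := by rw [hz, ← hg1, form_ap, form_eL_eL]
    have h0z : ⟪a, z⟫ = 0 := by rw [hz, ← hg0, form_ap, form_eL_eL]
    refine frame_main K h01 P1 hnot (a0 := z) (e0 := ap g (eR m F i2)) (e1 := ap g (eR m F i0))
      hz0 ha hw0 (by rw [fa_comm]; exact h0z) (by rw [fa_comm]; exact h1z) hw ?_ ?_ ?_ ?_ ?_ ?_
    · rw [hz, form_ap, form_eR_eL, if_pos rfl]
    · rw [← hg0, form_ap, form_eR_eL, if_neg h02'.symm]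
    · rw [← hg1, form_ap, form_eR_eL, if_neg h12'.symm]
    · rw [hz, form_ap, form_eR_eL, if_neg h02']
    · rw [← hg0, form_ap, form_eR_eL, if_pos rfl]
    · rw [← hg1, form_ap, form_eR_eL, if_neg h01']
  -- contradiction
  set a : VV m F := eL m F i0 with ha
  have ha0 : a ≠ 0 := by
    intro hc
    have := congrFun hc (Sum.inl i0)
    simp [ha, eL] at this
  set w : VV m F := eL m F i1 with hw
  set w' : VV m F := eR m F i1 with hw'
  have o1 : ⟪a, w⟫ = 0 := form_eL_eL _ _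
  have o2 : ⟪a, w'⟫ = 0 := by
    rw [ha, hw', fa_comm, form_eR_eL, if_neg h01'.symm]
  have o3 : ⟪w, w'⟫ = 1 := by
    rw [hw, hw', fa_comm, form_eR_eL, if_pos rfl]
  have o4 : ⟪a, w + w'⟫ = 0 := by rw [fa_add_right, o1, o2, add_zero]
  have k1 := all a w ha0 o1
  have k2 := all a w' ha0 o2
  have k3 := all a (w + w') ha0 o4
  rw [← y_zero_right] at k1 k2 k3
  have k4 := K.mul_mem k1 k2
  rw [y_mul o1 o2, o3, add_zero, zero_add] at k4
  exact hnot a ha0 (y_unique K o4 k3 k4)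

end KK

end Cfsg.Agent.Lib.SpTwo.Geom
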