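/-
The counting part of the minimal index theorem for Sp_2m(2): the unipotent radical of a point
stabiliser acting on a set of small size.
-/
import Mathlib
import Cfsg.Agent.Lib.SpTwo.Geom
import Cfsg.Agent.Lib.SpTwo.Gauss

set_option autoImplicit false
set_option linter.unusedSectionVars false
set_option linter.unusedSimpArgs false
set_option linter.unusedVariables false
set_option linter.style.haveILetI false

namespace Cfsg.Agent.Lib.SpTwo.Count

open Matrix Cfsg Cfsg.Agent.Lib.Classical.SympForm Cfsg.Agent.Lib.Classical.SympSimple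
open Cfsg.Agent.Lib.SpTwo.Basic Cfsg.Agent.Lib.SpTwo.Geom
open scoped _root_.Classical

lemma burnside_finset {Q X : Type*} [Group Q] [Fintype Q] [MulAction Q X] (S : Finset X)
    (hS : ∀ q : Q, ∀ x ∈ S, q • x ∈ S) :
    Fintype.card Q ∣ ∑ q : Q, (S.filter fun x => q • x = x).card := by
  let SS : SubMulAction Q X := ⟨(S : Set X), fun {q x} hx => hS q x hx⟩
  haveI : Finite SS := S.finite_toSet.to_subtype
  haveI : Fintype SS := Fintype.ofFinite _
  have B := MulAction.sum_card_fixedBy_eq_card_orbits_mul_card_group Q SS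
  have e : ∀ q : Q, Fintype.card (MulAction.fixedBy SS q) = (S.filter fun x => q • x = x).card := by
    intro q
    rw [← Fintype.card_coe]
    refine Fintype.card_congr ⟨fun z => ⟨z.1.1, ?_⟩, fun z => ⟨⟨z.1, ?_⟩, ?_⟩, ?_, ?_⟩
    · rw [Finset.mem_filter]
      refine ⟨z.1.2, ?_⟩
      have := z.2
      rw [MulAction.mem_fixedBy] at this
      exact congrArg Subtype.val this
    · exact (Finset.mem_filter.1 z.2).1
    · rw [MulAction.mem_fixedBy]
      apply Subtype.ext
      exact (Finset.mem_filter.1 z.2).2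
    · intro z
      rfl
    · intro z
      rfl
  simp only [e] at B
  rw [B]
  exact dvd_mul_left _ _

lemma even_card_of_fpf {α : Type*} (s : Finset α) (f : α → α) (h1 : ∀ x ∈ s, f x ∈ s)
    (h2 : ∀ x ∈ s, f (f x) = x) (h3 : ∀ x ∈ s, f x ≠ x) : Even s.card := by
  have : ∑ x ∈ s, (1 : ZMod 2) = 0 := by
    refine Finset.sum_involution (fun x _ => f x) ?_ ?_ ?_ ?_
    · intro a ha
      decide
    · intro a ha _
      exact h3 a ha
    · intro a ha
      exact h1 a ha
    · intro a ha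
      exact h2 a ha
  rw [Finset.sum_const, nsmul_eq_mul, mul_one] at this
  exact (ZMod.natCast_eq_zero_iff_even).1 this

variable {m : ℕ} {F : Type*} [Field F] [Fintype F] [CharP F 2]

local notation "⟪" a ", " b "⟫" => sympForm m F a b

lemma elim_two (hF : Fintype.card F = 2) (a : F) : a = 0 ∨ a = 1 := by
  have h : (Finset.univ : Finset F) = {0, 1} := by
    symm
    apply Finset.eq_of_subset_of_card_le (Finset.subset_univ _)
    rw [Finset.card_univ, hF, Finset.card_pair zero_ne_one]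
  have : a ∈ (Finset.univ : Finset F) := Finset.mem_univ a
  rw [h] at this
  simpa using this

lemma sum_F (hF : Fintype.card F = 2) (f : F → ℕ) : ∑ κ, f κ = f 0 + f 1 := by
  have h : (Finset.univ : Finset F) = {0, 1} := by
    ext a
    simpa using elim_two hF a
  rw [h, Finset.sum_pair zero_ne_one]

/-- The perp of a hyperbolic pair. -/
def T (u v : VV m F) : Submodule F (VV m F) where
  carrier := {w | ⟪w, u⟫ = 0 ∧ ⟪w, v⟫ = 0}
  add_mem' := by
    rintro a b ⟨h1, h2⟩ ⟨h3, h4⟩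
    exact ⟨by rw [fa_add_left, h1, h3, add_zero], by rw [fa_add_left, h2, h4, add_zero]⟩
  zero_mem' := ⟨fa_zero_left _, fa_zero_left _⟩
  smul_mem' := by
    rintro c a ⟨h1, h2⟩
    exact ⟨by rw [fa_smul_left, h1, mul_zero], by rw [fa_smul_left, h2, mul_zero]⟩

lemma mem_T {u v w : VV m F} : w ∈ T u v ↔ ⟪w, u⟫ = 0 ∧ ⟪w, v⟫ = 0 := Iff.rfl

/-- The decomposition of the space along a hyperbolic pair. -/
noncomputable def decomp {u v : VV m F} (huv : ⟪u, v⟫ = 1) : VV m F ≃ T u v × F × F where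
  toFun x := (⟨x + ⟪x, v⟫ • u + ⟪x, u⟫ • v, by
      have hvu : ⟪v, u⟫ = 1 := by rw [fa_comm]; exact huv
      have h2 := two_zero (F := F)
      constructor
      · rw [fa_add_left, fa_add_left, fa_smul_left, fa_smul_left, fa_self, hvu]
        linear_combination ⟪x, u⟫ * h2
      · rw [fa_add_left, fa_add_left, fa_smul_left, fa_smul_left, fa_self, huv]
        linear_combination ⟪x, v⟫ * h2⟩, ⟪x, v⟫, ⟪x, u⟫)
  invFun p := p.1.1 + p.2.1 • u + p.2.2 • v
  left_inv x := by
    have h2 := two_zero (F := F)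
    funext i
    simp only [Pi.add_apply, Pi.smul_apply, smul_eq_mul]
    linear_combination (⟪x, v⟫ * u i + ⟪x, u⟫ * v i) * h2
  right_inv := by
    rintro ⟨⟨w, hw1, hw2⟩, α, β⟩
    have hvu : ⟪v, u⟫ = 1 := by rw [fa_comm]; exact huv
    have h2 := two_zero (F := F)
    have e1 : ⟪w + α • u + β • v, v⟫ = α := by
      rw [fa_add_left, fa_add_left, fa_smul_left, fa_smul_left, fa_self, huv, hw2]
      ring
    have e2 : ⟪w + α • u + β • v, u⟫ = β := by
      rw [fa_add_left, fa_add_left, fa_smul_left, fa_smul_left, fa_self, hvu, hw1]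
      ring
    simp only [e1, e2]
    refine Prod.ext (Subtype.ext ?_) rfl
    funext i
    simp only [Pi.add_apply, Pi.smul_apply, smul_eq_mul]
    linear_combination (α * u i + β * v i) * h2

lemma card_T (hF : Fintype.card F = 2) {u v : VV m F} (huv : ⟪u, v⟫ = 1) [Fintype (T u v)] :
    Fintype.card (T u v) * 4 = 2 ^ (2 * m) := by
  have h1 := Fintype.card_congr (decomp huv)
  rw [Fintype.card_prod, Fintype.card_prod, hF, Fintype.card_fun, hF, Fintype.card_sum,
    Fintype.card_fin] at h1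
  rw [← two_mul] at h1
  rw [h1]

lemma card_T_eq (hF : Fintype.card F = 2) (hm : 1 ≤ m) {u v : VV m F} (huv : ⟪u, v⟫ = 1)
    [Fintype (T u v)] : Fintype.card (T u v) = (2 ^ (m - 1)) ^ 2 := by
  have h := card_T hF huv
  obtain ⟨n, rfl⟩ : ∃ n, m = n + 1 := ⟨m - 1, by omega⟩
  simp only [Nat.add_sub_cancel]
  have e : 2 ^ (2 * (n + 1)) = 4 * (2 ^ n) ^ 2 := by
    rw [← pow_mul, mul_add, pow_add, mul_comm n 2]
    norm_num
    ring
  omega

/-- The root group. -/
def Q (u v : VV m F) : Subgroup (GG m F) where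
  carrier := {g | ∃ w ∈ T u v, ∃ κ, g = y v w κ}
  mul_mem' := by
    rintro _ _ ⟨w, hw, κ, rfl⟩ ⟨w', hw', κ', rfl⟩
    have h1 : ⟪v, w⟫ = 0 := by rw [fa_comm]; exact hw.2
    have h2 : ⟪v, w'⟫ = 0 := by rw [fa_comm]; exact hw'.2
    exact ⟨w + w', (T u v).add_mem hw hw', _, y_mul h1 h2 κ κ'⟩
  one_mem' := ⟨0, (T u v).zero_mem, 0, (y_zero_zero v).symm⟩
  inv_mem' := by
    rintro _ ⟨w, hw, κ, rfl⟩
    have h1 : ⟪v, w⟫ = 0 := by rw [fa_comm]; exact hw.2
    exact ⟨w, hw, κ, y_inv h1 κ⟩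

lemma y_inj {u v : VV m F} (huv : ⟪u, v⟫ = 1) {w w' : VV m F} (hw : w ∈ T u v) (hw' : w' ∈ T u v)
    {κ κ' : F} (h : y v w κ = y v w' κ') : w = w' ∧ κ = κ' := by
  have h1 : ⟪v, w⟫ = 0 := by rw [fa_comm]; exact hw.2
  have h2 : ⟪v, w'⟫ = 0 := by rw [fa_comm]; exact hw'.2
  have hvu : ⟪v, u⟫ = 1 := by rw [fa_comm]; exact huv
  have e := congrArg (fun g => ap g u) h
  simp only [ap_y h1, ap_y h2, huv] at e
  have e1 : ⟪u, w⟫ = 0 := by rw [fa_comm]; exact hw.1
  have e2 : ⟪u, w'⟫ = 0 := by rw [fa_comm]; exact hw'.1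
  rw [e1, e2] at e
  simp only [one_smul, zero_smul, add_zero, mul_one] at e
  have e3 : w + κ • v = w' + κ' • v := by
    rw [add_assoc, add_assoc] at e
    exact add_left_cancel e
  have e4 := congrArg (fun z => ⟪z, u⟫) e3
  simp only [fa_add_left, fa_smul_left, hvu, hw.1, hw'.1, zero_add, mul_one] at e4
  subst e4
  exact ⟨add_right_cancel e3, rfl⟩

/-- The equivalence parametrising the root group. -/
noncomputable def Qequiv {u v : VV m F} (huv : ⟪u, v⟫ = 1) : T u v × F ≃ Q u v :=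
  Equiv.ofBijective (fun p => ⟨y v p.1.1 p.2, p.1.1, p.1.2, p.2, rfl⟩) (by
    constructor
    · rintro ⟨⟨w, hw⟩, κ⟩ ⟨⟨w', hw'⟩, κ'⟩ h
      have h1 := congrArg Subtype.val h
      obtain ⟨rfl, rfl⟩ := y_inj huv hw hw' h1
      rfl
    · rintro ⟨g, w, hw, κ, rfl⟩
      exact ⟨(⟨w, hw⟩, κ), rfl⟩)

variable {X : Type*} [Fintype X] [MulAction (GG m F) X]

/-- Fixed points in a finite set. -/
noncomputable def Fx (S : Finset X) (g : GG m F) : Finset X := S.filter fun x => g • x = x

lemma mem_Fx {S : Finset X} {g : GG m F} {x : X} : x ∈ Fx S g ↔ x ∈ S ∧ g • x = x :=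
  Finset.mem_filter

lemma card_Fx_conj {S : Finset X} {g : GG m F} (hg : ∀ x, g • x ∈ S ↔ x ∈ S) (h : GG m F) :
    (Fx S (g * h * g⁻¹)).card = (Fx S h).card := by
  refine Finset.card_bij' (fun x _ => g⁻¹ • x) (fun x _ => g • x) ?_ ?_ ?_ ?_
  · intro x hx
    obtain ⟨h1, h2⟩ := mem_Fx.1 hx
    refine mem_Fx.2 ⟨?_, ?_⟩
    · rw [← hg, smul_inv_smul]
      exact h1
    · rw [mul_smul, mul_smul, smul_eq_iff_eq_inv_smul] at h2
      exact h2
  · intro x hx
    obtain ⟨h1, h2⟩ := mem_Fx.1 hx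
    refine mem_Fx.2 ⟨(hg x).2 h1, ?_⟩
    rw [mul_smul, mul_smul, inv_smul_smul, h2]
  · intro x _
    exact smul_inv_smul g x
  · intro x _
    exact inv_smul_smul g x

/-- The master congruence. -/
theorem master (hF : Fintype.card F = 2) (hm : 2 ≤ m) {u v : VV m F} (huv : ⟪u, v⟫ = 1)
    [Fintype (T u v)] (S : Finset X)
    (hS : ∀ g : GG m F, g * t v = t v * g → ∀ x, g • x ∈ S ↔ x ∈ S)
    {w₀ : T u v} (hw₀ : w₀ ≠ 0) :
    ∃ k, (Fx S (1 : GG m F)).card + (Fx S (t v)).card
        + (Fintype.card (T u v) - 1) * ((Fx S (y v w₀.1 0)).card + (Fx S (y v w₀.1 1)).card)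
      = k * (2 * Fintype.card (T u v)) := by
  have h01 := elim_two hF
  have hvu : ⟪v, u⟫ = 1 := by rw [fa_comm]; exact huv
  have hv0 : v ≠ 0 := by
    rintro rfl
    rw [fa_zero_right] at huv
    exact zero_ne_one huv
  haveI : Fintype (Q u v) := Fintype.ofFinite _
  -- Burnside
  have B := burnside_finset (Q := Q u v) S (by
    rintro ⟨q, w, hw, κ, rfl⟩ x hx
    have h1 : ⟪v, w⟫ = 0 := by rw [fa_comm]; exact hw.2
    exact (hS (y v w κ) (y_comm_tt h1 1 κ).symm x).2 hx)
  have hcard : Fintype.card (Q u v) = 2 * Fintype.card (T u v) := by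
    rw [← Fintype.card_congr (Qequiv huv), Fintype.card_prod, hF, mul_comm]
  have hsum : ∑ q : Q u v, (S.filter fun x => q • x = x).card
      = ∑ w : T u v, ((Fx S (y v w.1 0)).card + (Fx S (y v w.1 1)).card) := by
    rw [← Equiv.sum_comp (Qequiv huv), Fintype.sum_prod_type]
    refine Finset.sum_congr rfl fun w _ => ?_
    rw [sum_F hF]
    rfl
  rw [hsum, hcard] at B
  -- constancy
  have const : ∀ w : T u v, w ≠ 0 → (κ : F) →
      (Fx S (y v w.1 κ)).card = (Fx S (y v w₀.1 κ)).card := by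
    intro w hw κ
    let i0 : Fin m := ⟨0, by omega⟩
    let i1 : Fin m := ⟨1, by omega⟩
    have hi : i0 ≠ i1 := by simp [i0, i1, Fin.ext_iff]
    have hw1 : w.1 ≠ 0 := fun h => hw (Subtype.ext h)
    have hw01 : w₀.1 ≠ 0 := fun h => hw₀ (Subtype.ext h)
    have ne : ∀ z : T u v, v ≠ z.1 := by
      intro z hz
      have := z.2.1
      rw [← hz, hvu] at this
      exact one_ne_zero this
    have or : ∀ z : T u v, ⟪v, z.1⟫ = 0 := fun z => by rw [fa_comm]; exact z.2.2
    obtain ⟨g1, a1, a2⟩ := exists_map_pair h01 hi hv0 hw1 (ne w) (or w)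
    obtain ⟨g2, b1, b2⟩ := exists_map_pair h01 hi hv0 hw01 (ne w₀) (or w₀)
    set g := g1 * g2⁻¹ with hg
    have gv : ap g v = v := by
      have e : ap g2⁻¹ v = eL m F i0 := by rw [← b1, ap_inv_ap]
      rw [hg, ap_mul, e, a1]
    have gw : ap g w₀.1 = w.1 := by
      have e : ap g2⁻¹ w₀.1 = eL m F i1 := by rw [← b2, ap_inv_ap]
      rw [hg, ap_mul, e, a2]
    have gt : g * t v = t v * g := by
      have := t_conj g v
      rw [gv] at this
      calc g * t v = (g * t v * g⁻¹) * g := by group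
        _ = t v * g := by rw [this]
    have e := card_Fx_conj (hS g gt) (y v w₀.1 κ)
    rw [y_conj, gv, gw] at e
    exact e
  have hw0 : (0 : T u v) ∈ (Finset.univ : Finset (T u v)) := Finset.mem_univ _
  rw [← Finset.add_sum_erase _ _ hw0] at B
  have e0 : (Fx S (y v (0 : T u v).1 0)).card + (Fx S (y v (0 : T u v).1 1)).card
      = (Fx S (1 : GG m F)).card + (Fx S (t v)).card := by
    have h1 : y v (0 : T u v).1 0 = 1 := y_zero_zero v
    have h2 : y v (0 : T u v).1 1 = t v := y_zero_vec v 1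
    rw [h1, h2]
  rw [e0] at B
  have e1 : ∑ w ∈ (Finset.univ : Finset (T u v)).erase 0,
        ((Fx S (y v w.1 0)).card + (Fx S (y v w.1 1)).card)
      = (Fintype.card (T u v) - 1) * ((Fx S (y v w₀.1 0)).card + (Fx S (y v w₀.1 1)).card) := by
    rw [Finset.sum_congr rfl (g := fun _ =>
      (Fx S (y v w₀.1 0)).card + (Fx S (y v w₀.1 1)).card)]
    · rw [Finset.sum_const, Finset.card_erase_of_mem hw0, Finset.card_univ, smul_eq_mul]
    · intro w hw
      have hw' := (Finset.mem_erase.1 hw).1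
      rw [const w hw', const w hw']
  rw [e1] at B
  obtain ⟨k, hk⟩ := B
  exact ⟨k, by rw [hk, mul_comm]⟩

/-- The points fixed by the transvection. -/
noncomputable def X0 (X : Type*) [Fintype X] [MulAction (GG m F) X] (v : VV m F) : Finset X :=
  Finset.univ.filter fun x => t v • x = x

/-- The points moved by the transvection. -/
noncomputable def X1 (X : Type*) [Fintype X] [MulAction (GG m F) X] (v : VV m F) : Finset X :=
  Finset.univ.filter fun x => t v • x ≠ x

lemma mem_X0 {v : VV m F} {x : X} : x ∈ X0 X v ↔ t v • x = x := by simp [X0]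

lemma mem_X1 {v : VV m F} {x : X} : x ∈ X1 X v ↔ t v • x ≠ x := by simp [X1]

lemma card_X0_add (v : VV m F) : (X0 X v).card + (X1 X v).card = Fintype.card X := by
  rw [X0, X1, Finset.card_filter_add_card_filter_not]
  rfl

lemma comm_fix {v : VV m F} {g : GG m F} (hg : g * t v = t v * g) (x : X) :
    t v • g • x = g • x ↔ t v • x = x := by
  rw [← mul_smul, ← hg, mul_smul]
  exact smul_left_cancel_iff g

lemma num1 {N e M k : ℕ} (hM : 1 ≤ M) (h : N + 0 + (M - 1) * e = k * (2 * M)) (he : Even e)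
    (hle : e ≤ N) (hlt : N < 2 * M) : e = N := by
  obtain ⟨D, rfl⟩ := Nat.exists_eq_add_of_le hle
  obtain ⟨M', rfl⟩ : ∃ M', M = M' + 1 := ⟨M - 1, by omega⟩
  obtain ⟨e', rfl⟩ := he
  simp only [Nat.add_sub_cancel, add_zero] at h
  have h2 : D + (M' + 1) * (e' + e') = k * (2 * (M' + 1)) := by nlinarith
  have h3 : 2 * (M' + 1) ∣ D := by
    have h4 : 2 * (M' + 1) ∣ (M' + 1) * (e' + e') := ⟨e', by ring⟩
    have h5 : 2 * (M' + 1) ∣ D + (M' + 1) * (e' + e') := ⟨k, by rw [h2]; ring⟩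
    exact (Nat.dvd_add_iff_left h4).2 h5
  have h6 := Nat.eq_zero_of_dvd_of_lt h3 (by omega)
  omega

lemma num2 {c d M k : ℕ} (hM : 1 ≤ M) (h : c + c + (M - 1) * (d + d) = k * (2 * M)) (hle : d ≤ c) :
    c = d ∨ M ≤ c := by
  obtain ⟨D, rfl⟩ := Nat.exists_eq_add_of_le hle
  obtain ⟨M', rfl⟩ : ∃ M', M = M' + 1 := ⟨M - 1, by omega⟩
  simp only [Nat.add_sub_cancel] at h
  have h2 : D + (M' + 1) * d = k * (M' + 1) := by nlinarith
  have h3 : (M' + 1) ∣ D := by
    have h4 : (M' + 1) ∣ (M' + 1) * d := ⟨d, rfl⟩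
    have h5 : (M' + 1) ∣ D + (M' + 1) * d := ⟨k, by rw [h2]; ring⟩
    exact (Nat.dvd_add_iff_left h4).2 h5
  rcases Nat.eq_zero_or_pos D with h0 | h0
  · left
    omega
  · right
    have := Nat.le_of_dvd h0 h3
    omega

section Parts

variable {u v : VV m F}

lemma y_comm_t {w : VV m F} (h : ⟪v, w⟫ = 0) (κ : F) : y v w κ * t v = t v * y v w κ :=
  (y_comm_tt h 1 κ).symm

/-- On the moved points, each root element or its translate fixes a given point. -/
theorem X1_full (hF : Fintype.card F = 2) (hm : 2 ≤ m) (huv : ⟪u, v⟫ = 1) [Fintype (T u v)]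
    (hlt : (X1 X v).card < 2 * Fintype.card (T u v)) {w₀ : T u v} (hw₀ : w₀ ≠ 0) {x : X}
    (hx : t v • x ≠ x) : ∃ κ, y v w₀.1 κ • x = x := by
  have hT : 1 ≤ Fintype.card (T u v) := Fintype.card_pos
  have hinv : ∀ g : GG m F, g * t v = t v * g → ∀ x : X, g • x ∈ X1 X v ↔ x ∈ X1 X v := by
    intro g hg x
    rw [mem_X1, mem_X1, Ne, Ne, comm_fix hg]
  obtain ⟨k, hk⟩ := master hF hm huv (X1 X v) hinv hw₀
  have e1 : Fx (X1 X v) (1 : GG m F) = X1 X v := by
    ext z
    simp [mem_Fx]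
  have e2 : Fx (X1 X v) (t v) = ∅ := by
    ext z
    simp only [mem_Fx, mem_X1]
    simp
  rw [e1, e2, Finset.card_empty] at hk
  have hw : ⟪v, w₀.1⟫ = 0 := by rw [fa_comm]; exact w₀.2.2
  have hev : ∀ κ, Even (Fx (X1 X v) (y v w₀.1 κ)).card := by
    intro κ
    refine even_card_of_fpf _ (fun z => t v • z) ?_ ?_ ?_
    · intro z hz
      obtain ⟨h1, h2⟩ := mem_Fx.1 hz
      refine mem_Fx.2 ⟨(hinv (t v) rfl z).2 h1, ?_⟩
      rw [← mul_smul, y_comm_t hw, mul_smul, h2]
    · intro z _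
      simp only [← mul_smul, t_mul_self, one_smul]
    · intro z hz
      exact mem_X1.1 (mem_Fx.1 hz).1
  have hdisj : Disjoint (Fx (X1 X v) (y v w₀.1 0)) (Fx (X1 X v) (y v w₀.1 1)) := by
    rw [Finset.disjoint_left]
    intro z hz hz'
    obtain ⟨h1, h2⟩ := mem_Fx.1 hz
    obtain ⟨h3, h4⟩ := mem_Fx.1 hz'
    apply mem_X1.1 h1
    have e : y v w₀.1 1 = t v * y v w₀.1 0 := by
      have := tt_mul_y v w₀.1 1 0
      rw [add_zero] at this
      exact this.symm
    rw [e, mul_smul, h2] at h4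
    exact h4
  have hsub : Fx (X1 X v) (y v w₀.1 0) ∪ Fx (X1 X v) (y v w₀.1 1) ⊆ X1 X v := by
    intro z hz
    rcases Finset.mem_union.1 hz with hz | hz
    · exact (mem_Fx.1 hz).1
    · exact (mem_Fx.1 hz).1
  have hcard := Finset.card_le_card hsub
  rw [Finset.card_union_of_disjoint hdisj] at hcard
  have hnum := num1 hT hk ((hev 0).add (hev 1)) hcard hlt
  have heq : Fx (X1 X v) (y v w₀.1 0) ∪ Fx (X1 X v) (y v w₀.1 1) = X1 X v := by
    apply Finset.eq_of_subset_of_card_le hsub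
    rw [Finset.card_union_of_disjoint hdisj, hnum]
  have hxm : x ∈ X1 X v := mem_X1.2 hx
  rw [← heq] at hxm
  rcases Finset.mem_union.1 hxm with hz | hz
  · exact ⟨0, (mem_Fx.1 hz).2⟩
  · exact ⟨1, (mem_Fx.1 hz).2⟩

/-- On the fixed points: either many of them, or the root group acts trivially. -/
theorem X0_part (hF : Fintype.card F = 2) (hm : 2 ≤ m) (huv : ⟪u, v⟫ = 1) [Fintype (T u v)]
    {w₀ : T u v} (hw₀ : w₀ ≠ 0) :
    Fintype.card (T u v) ≤ (X0 X v).card ∨ ∀ x : X, t v • x = x → y v w₀.1 0 • x = x := by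
  have hT : 1 ≤ Fintype.card (T u v) := Fintype.card_pos
  have hinv : ∀ g : GG m F, g * t v = t v * g → ∀ x : X, g • x ∈ X0 X v ↔ x ∈ X0 X v := by
    intro g hg x
    rw [mem_X0, mem_X0, comm_fix hg]
  obtain ⟨k, hk⟩ := master hF hm huv (X0 X v) hinv hw₀
  have e1 : Fx (X0 X v) (1 : GG m F) = X0 X v := by
    ext z
    simp [mem_Fx]
  have e2 : Fx (X0 X v) (t v) = X0 X v := by
    ext z
    simp only [mem_Fx, mem_X0]
    simp
  have hw : ⟪v, w₀.1⟫ = 0 := by rw [fa_comm]; exact w₀.2.2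
  have e3 : Fx (X0 X v) (y v w₀.1 1) = Fx (X0 X v) (y v w₀.1 0) := by
    ext z
    simp only [mem_Fx, mem_X0]
    have e : y v w₀.1 1 = y v w₀.1 0 * t v := by
      have := y_mul_tt hw 1 0
      rw [zero_add] at this
      exact this.symm
    constructor
    · rintro ⟨h1, h2⟩
      rw [e, mul_smul, h1] at h2
      exact ⟨h1, h2⟩
    · rintro ⟨h1, h2⟩
      refine ⟨h1, ?_⟩
      rw [e, mul_smul, h1, h2]
  rw [e1, e2, e3] at hk
  have hle : (Fx (X0 X v) (y v w₀.1 0)).card ≤ (X0 X v).card :=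
    Finset.card_le_card (Finset.filter_subset _ _)
  rcases num2 hT hk hle with h | h
  · right
    intro z hz
    have h3 : Fx (X0 X v) (y v w₀.1 0) = X0 X v :=
      Finset.eq_of_subset_of_card_le (Finset.filter_subset _ _) h.le
    have h4 : z ∈ X0 X v := mem_X0.2 hz
    rw [← h3] at h4
    exact (mem_Fx.1 h4).2
  · left
    exact h

/-- A moved point produces many moved points. -/
theorem X1_large (hF : Fintype.card F = 2) (hm : 1 ≤ m) (huv : ⟪u, v⟫ = 1) [Fintype (T u v)]
    {x : X} (hx : t v • x ≠ x) (hfix : ∀ w : T u v, ∃ κ, y v w.1 κ • x = x) :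
    (2 ^ (m - 1)) ^ 2 ≤ (X1 X v).card + 2 ^ (m - 1) := by
  have h01 := elim_two hF
  have h2 := two_zero (F := F)
  have hvu : ⟪v, u⟫ = 1 := by rw [fa_comm]; exact huv
  choose g hg using hfix
  have hperp : ∀ w : T u v, ⟪v, w.1⟫ = 0 := fun w => by rw [fa_comm]; exact w.2.2
  have uniq0 : ∀ (z : X), t v • z ≠ z → ∀ (w : T u v) (κ κ' : F), y v w.1 κ • z = z →
      y v w.1 κ' • z = z → κ = κ' := by
    intro z hz w κ κ' h1 h3
    by_contra hne
    apply hz
    have e : y v w.1 κ * y v w.1 κ' = t v := by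
      rw [y_mul (hperp w) (hperp w), vadd_self, fa_self, add_zero, y_zero_vec]
      have : κ + κ' = 1 := by
        rcases h01 (κ + κ') with h4 | h4
        · exfalso
          apply hne
          linear_combination h4 - κ' * h2
        · exact h4
      rw [this]
      rfl
    rw [← e, mul_smul, h3, h1]
  have uniq := uniq0 x hx
  have polar : ∀ w w' : T u v, g (w + w') = g w + g w' + ⟪w.1, w'.1⟫ := by
    intro w w'
    refine uniq (w + w') _ _ (hg _) ?_
    have := y_mul (hperp w) (hperp w') (g w) (g w')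
    rw [Submodule.coe_add, ← this, mul_smul, hg, hg]
  have hnd : ∀ c : T u v, c ≠ 0 → ∃ w : T u v, ⟪w.1, c.1⟫ = 1 := by
    intro c hc
    have hc1 : c.1 ≠ 0 := fun h => hc (Subtype.ext h)
    obtain ⟨z, hz⟩ := exists_form_one h01 hc1
    refine ⟨⟨z + ⟪z, v⟫ • u + ⟪z, u⟫ • v, ?_, ?_⟩, ?_⟩
    · rw [fa_add_left, fa_add_left, fa_smul_left, fa_smul_left, fa_self, hvu]
      linear_combination ⟪z, u⟫ * h2
    · rw [fa_add_left, fa_add_left, fa_smul_left, fa_smul_left, fa_self, huv]
      linear_combination ⟪z, v⟫ * h2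
    · have hcu : ⟪u, c.1⟫ = 0 := by rw [fa_comm]; exact c.2.1
      have hcv : ⟪v, c.1⟫ = 0 := by rw [fa_comm]; exact c.2.2
      simp only [fa_add_left, fa_smul_left, hcu, hcv, hz]
      ring
  have G := Gauss.card_zeros h01 h2 g (fun w w' : T u v => ⟪w.1, w'.1⟫) polar
    (fun w w' c => fa_add_left _ _ _) hnd (card_T_eq hF hm huv)
  set Z := Finset.univ.filter fun w : T u v => g w = 0 with hZ
  -- the points obtained from the zeros
  have fixa : ∀ a : T u v, g a = 0 → ∀ w : T u v,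
      y v w.1 (g w + ⟪w.1, a.1⟫) • (t a.1 • x) = t a.1 • x := by
    intro a ha w
    have hva : ⟪v, a.1⟫ = 0 := hperp a
    set κ := g w + ⟪w.1, a.1⟫ with hκ
    have e1 : t a.1 * y v w.1 κ * t a.1 = y v (w.1 + ⟪w.1, a.1⟫ • a.1) κ := by
      have := y_conj (t a.1) v w.1 κ
      rw [t_inv, ap_t, ap_t, hva, zero_smul, add_zero] at this
      exact this
    have e2 : y v (w.1 + ⟪w.1, a.1⟫ • a.1) κ • x = x := by
      rcases h01 ⟪w.1, a.1⟫ with h | h
      · rw [h, zero_smul, add_zero, hκ, h, add_zero]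
        exact hg w
      · rw [h, one_smul, hκ, h]
        have := y_mul (hperp w) (hperp a) (g w) (g a)
        rw [ha, add_zero, h] at this
        rw [← this, mul_smul]
        have h3 : y v a.1 0 • x = x := by
          have := hg a
          rwa [ha] at this
        rw [h3, hg]
    rw [← e1] at e2
    rw [mul_smul, mul_smul] at e2
    have e3 := congrArg (fun z => t a.1 • z) e2
    rwa [smul_smul, t_mul_self, one_smul] at e3
  have ta_moved : ∀ (a : T u v) (ε : F), t v • (tt v ε * t a.1) • x ≠ (tt v ε * t a.1) • x := by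
    intro a ε
    have hc : (tt v ε * t a.1) * t v = t v * (tt v ε * t a.1) := by
      have h3 : t a.1 * t v = t v * t a.1 := t_comm a.2.2
      have h4 : tt v ε * t v = t v * tt v ε := by
        rw [t, tt_mul, tt_mul, add_comm]
      rw [mul_assoc, h3, ← mul_assoc, h4, mul_assoc]
    intro hc2
    exact hx ((comm_fix hc x).1 hc2)
  have hinj : Set.InjOn (fun p : T u v × F => (tt v p.2 * t p.1.1) • x)
      (Z ×ˢ (Finset.univ : Finset F) : Finset (T u v × F)) := by
    rintro ⟨a, ε⟩ ha ⟨b, ε'⟩ hb he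
    have ha' : g a = 0 := by
      have := (Finset.mem_product.1 ha).1
      simpa [hZ] using this
    have hb' : g b = 0 := by
      have := (Finset.mem_product.1 hb).1
      simpa [hZ] using this
    simp only at he
    set p := (tt v ε * t a.1) • x with hp
    have hpmoved : t v • p ≠ p := ta_moved a ε
    have hp' : (tt v ε' * t b.1) • x = p := he.symm
    have fix_p : ∀ (c : T u v) (δ : F), g c = 0 → (tt v δ * t c.1) • x = p → ∀ w : T u v,
        y v w.1 (g w + ⟪w.1, c.1⟫) • p = p := by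
      intro c δ hc hcp w
      rw [← hcp, mul_smul, ← mul_smul (y v w.1 _), ← y_comm_tt (hperp w), mul_smul, fixa c hc w]
    have hab : a = b := by
      by_contra hne
      have hcne : a - b ≠ 0 := sub_ne_zero.2 hne
      obtain ⟨w, hw⟩ := hnd (a - b) hcne
      have e1 := fix_p a ε ha' rfl w
      have e2 := fix_p b ε' hb' hp' w
      have e3 := uniq0 p hpmoved w _ _ e1 e2
      have e4 : ⟪w.1, (a - b).1⟫ = ⟪w.1, a.1⟫ + ⟪w.1, b.1⟫ := by
        have : (a - b).1 = a.1 + b.1 := by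
          rw [Submodule.coe_sub]
          funext i
          simp only [Pi.sub_apply, Pi.add_apply]
          linear_combination -(b.1 i) * h2
        rw [this, fa_add_right]
      rw [e4] at hw
      have e5 : ⟪w.1, a.1⟫ = ⟪w.1, b.1⟫ := add_left_cancel e3
      rw [e5] at hw
      rw [CharTwo.add_self_eq_zero] at hw
      exact zero_ne_one hw
    subst hab
    refine Prod.ext rfl ?_
    by_contra hne
    simp only at hne
    apply hpmoved
    have h1 : tt v ε * tt v ε' = t v := by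
      rw [tt_mul]
      have : ε + ε' = 1 := by
        rcases h01 (ε + ε') with h4 | h4
        · exfalso
          apply hne
          linear_combination h4 - ε' * h2
        · exact h4
      rw [this]
      rfl
    calc t v • p = (tt v ε * tt v ε') • p := by rw [h1]
      _ = tt v ε • tt v ε' • p := mul_smul _ _ _
      _ = tt v ε • tt v ε' • (tt v ε' * t a.1) • x := by rw [hp']
      _ = (tt v ε * t a.1) • x := by
        simp only [← mul_smul]
        rw [← mul_assoc (tt v ε'), tt_mul, CharTwo.add_self_eq_zero, tt_zero_right, one_mul]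
      _ = p := rfl
  have hle : (Z ×ˢ (Finset.univ : Finset F)).card ≤ (X1 X v).card := by
    refine Finset.card_le_card_of_injOn _ ?_ hinj
    intro p _
    exact mem_X1.2 (ta_moved p.1 p.2)
  rw [Finset.card_product, Finset.card_univ, hF] at hle
  omega

end Parts

end Cfsg.Agent.Lib.SpTwo.Count
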