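/-
The lower bound in the minimal index theorem for Sp_2m(2).
-/
import Mathlib
import Cfsg.Agent.Lib.SpTwo.Count

set_option autoImplicit false
set_option linter.unusedSectionVars false
set_option linter.unusedSimpArgs false
set_option linter.unusedVariables false
set_option linter.style.haveILetI false

namespace Cfsg.Agent.Lib.SpTwo.Main

open Matrix Cfsg Cfsg.Agent.Lib.Classical.SympForm Cfsg.Agent.Lib.Classical.SympSimple
open Cfsg.Agent.Lib.SpTwo.Basic Cfsg.Agent.Lib.SpTwo.Geom Cfsg.Agent.Lib.SpTwo.Count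
open scoped _root_.Classical

variable {m : ℕ} {F : Type*} [Field F] [Fintype F] [CharP F 2]

local notation "⟪" a ", " b "⟫" => sympForm m F a b

theorem small_action {X : Type*} [Fintype X] [MulAction (GG m F) X]
    (hF : Fintype.card F = 2) (hm : 2 ≤ m) {u v : VV m F} (huv : ⟪u, v⟫ = 1)
    (hX : Fintype.card X + 2 ^ (m - 1) < 2 * (2 ^ (m - 1)) ^ 2) (hne : ∃ x : X, t v • x ≠ x) :
    (∀ x : X, t v • x ≠ x → ∀ w, ⟪v, w⟫ = 0 → ∃ κ, y v w κ • x = x) ∧
      (∀ x : X, t v • x = x → ∀ w, ⟪v, w⟫ = 0 → s v w • x = x) := by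
  have h01 := elim_two hF
  have h2 := two_zero (F := F)
  have hvu : ⟪v, u⟫ = 1 := by rw [fa_comm]; exact huv
  haveI : Fintype (T u v) := Fintype.ofFinite _
  have hcT := card_T_eq hF (by omega) huv
  have hsum := card_X0_add (X := X) v
  have red : ∀ w : VV m F, ⟪v, w⟫ = 0 → ∃ w' : T u v, ∀ κ, y v w κ = y v w'.1 κ := by
    intro w hw
    refine ⟨⟨w + ⟪w, u⟫ • v, ?_, ?_⟩, ?_⟩
    · rw [fa_add_left, fa_smul_left, hvu]
      linear_combination ⟪w, u⟫ * h2
    · rw [fa_add_left, fa_smul_left, fa_self, fa_comm w v, hw]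
      ring
    · intro κ
      rcases h01 ⟪w, u⟫ with h | h
      · simp only [h, zero_smul, add_zero]
      · simp only [h, one_smul]
        exact (y_add_self hw κ).symm
  have part1 : ∀ x : X, t v • x ≠ x → ∀ w : T u v, ∃ κ, y v w.1 κ • x = x := by
    intro x hx w
    by_cases hw : w = 0
    · refine ⟨0, ?_⟩
      subst hw
      have e : y v (0 : T u v).1 0 = 1 := y_zero_zero v
      rw [e, one_smul]
    · refine X1_full hF hm huv ?_ hw hx
      rw [hcT]
      have hPpos : 1 ≤ 2 ^ (m - 1) := Nat.one_le_two_pow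
      omega
  refine ⟨?_, ?_⟩
  · intro x hx w hw
    obtain ⟨w', hw'⟩ := red w hw
    obtain ⟨κ, hκ⟩ := part1 x hx w'
    exact ⟨κ, by rw [hw']; exact hκ⟩
  · intro x hx w hw
    obtain ⟨w', hw'⟩ := red w hw
    rw [← y_zero_right, hw']
    by_cases h0 : w' = 0
    · subst h0
      have e : y v (0 : T u v).1 0 = 1 := y_zero_zero v
      rw [e, one_smul]
    · obtain ⟨x₀, hx₀⟩ := hne
      have L := X1_large hF (by omega) huv hx₀ (part1 x₀ hx₀)
      rcases X0_part (X := X) hF hm huv h0 with h | h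
      · rw [hcT] at h
        have hPpos : 1 ≤ 2 ^ (m - 1) := Nat.one_le_two_pow
        omega
      · exact h x hx

section Index

variable (K : Subgroup (GG m F))

lemma smul_base (g : GG m F) :
    g • ((1 : GG m F) : GG m F ⧸ K) = ((1 : GG m F) : GG m F ⧸ K) ↔ g ∈ K := by
  rw [MulAction.Quotient.smul_coe, smul_eq_mul, mul_one, QuotientGroup.eq, mul_one, inv_mem_iff]

lemma top_of_all (hF : Fintype.card F = 2) (h : ∀ x : VV m F, t x ∈ K) : K = ⊤ := by
  have h01 := elim_two hF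
  rw [eq_top_iff, ← closure_transvectionSet (m := m) (F := F), Subgroup.closure_le]
  rintro A ⟨w, c, hA⟩
  rcases h01 c with rfl | rfl
  · have : A = tt w 0 := Subtype.ext hA
    rw [this, tt_zero_right]
    exact K.one_mem
  · have : A = t w := Subtype.ext hA
    rw [this]
    exact h w

lemma exists_moved (hF : Fintype.card F = 2) (hK : K ≠ ⊤) {v : VV m F} (hv : v ≠ 0) :
    ∃ x : GG m F ⧸ K, t v • x ≠ x := by
  by_contra hc
  push Not at hc
  apply hK
  refine top_of_all K hF fun a => ?_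
  by_cases ha : a = 0
  · subst ha
    rw [t_zero]
    exact K.one_mem
  obtain ⟨A, -, hA⟩ := exists_closure_ne_zero v a hv ha
  have h1 := hc ((A⁻¹ : GG m F) : GG m F ⧸ K)
  rw [MulAction.Quotient.smul_coe, smul_eq_mul, eq_comm, QuotientGroup.eq] at h1
  have e : (A⁻¹)⁻¹ * (t v * A⁻¹) = t a := by
    rw [inv_inv, ← mul_assoc, t_conj]
    show t (A.1 *ᵥ v) = t a
    rw [hA]
  rw [e] at h1
  exact h1

/-- The lower bound for the symplectic group. -/
theorem lower_bound (hF : Fintype.card F = 2) (hm : 3 ≤ m) (hK : K ≠ ⊤) :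
    2 ^ (m - 1) * (2 ^ m - 1) ≤ K.index := by
  by_contra hlt
  push Not at hlt
  have h01 := elim_two hF
  haveI : Finite (GG m F ⧸ K) := inferInstance
  haveI : Fintype (GG m F ⧸ K) := Fintype.ofFinite _
  have hcard : Fintype.card (GG m F ⧸ K) = K.index := by
    rw [Subgroup.index, Nat.card_eq_fintype_card]
  set P := 2 ^ (m - 1) with hP
  have hP1 : 1 ≤ P := Nat.one_le_two_pow
  have hP2 : 2 ^ m = 2 * P := by
    rw [hP, ← pow_succ']
    congr 1
    omega
  rw [hP2] at hlt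
  have hX : Fintype.card (GG m F ⧸ K) + P < 2 * P ^ 2 := by
    rw [hcard]
    obtain ⟨P', hP'⟩ : ∃ P', P = P' + 1 := ⟨P - 1, by omega⟩
    rw [hP'] at hlt ⊢
    have e : 2 * (P' + 1) - 1 = 2 * P' + 1 := by omega
    rw [e] at hlt
    nlinarith
  have key : ∀ a : VV m F, a ≠ 0 → ∃ u, ⟪u, a⟫ = 1 := fun a ha => exists_form_one h01 ha
  refine no_small K hm h01 hK ?_ ?_
  · intro a ha hta w hw
    obtain ⟨u, hu⟩ := key a ha
    obtain ⟨P1, -⟩ := small_action (X := GG m F ⧸ K) hF (by omega) hu hX (exists_moved K hF hK ha)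
    have hmoved : t a • ((1 : GG m F) : GG m F ⧸ K) ≠ ((1 : GG m F) : GG m F ⧸ K) := by
      rw [Ne, smul_base]
      exact hta
    obtain ⟨κ, hκ⟩ := P1 _ hmoved w hw
    exact ⟨κ, (smul_base K _).1 hκ⟩
  · intro a ha hta w hw
    obtain ⟨u, hu⟩ := key a ha
    obtain ⟨-, P2⟩ := small_action (X := GG m F ⧸ K) hF (by omega) hu hX (exists_moved K hF hK ha)
    exact (smul_base K _).1 (P2 _ ((smul_base K _).2 hta) w hw)

end Index

end Cfsg.Agent.Lib.SpTwo.Main
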