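/-
The subgroup of index `2^(m-1)(2^m-1)` of Sp_2m(2): the stabiliser of a quadratic form of minus type.
-/
import Mathlib
import Cfsg.Agent.Lib.SpTwo.Main

set_option autoImplicit false
set_option linter.unusedSectionVars false
set_option linter.unusedSimpArgs false
set_option linter.unusedVariables false
set_option linter.style.haveILetI false

namespace Cfsg.Agent.Lib.SpTwo.Exist

open Matrix Cfsg Cfsg.Agent.Lib.Classical.SympForm Cfsg.Agent.Lib.Classical.SympSimple
open Cfsg.Agent.Lib.SpTwo.Basic Cfsg.Agent.Lib.SpTwo.Geom Cfsg.Agent.Lib.SpTwo.Count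
open Cfsg.Agent.Lib.SpTwo.Gauss
open scoped _root_.Classical

variable {m : ℕ} {F : Type*} [Field F] [Fintype F] [CharP F 2]

local notation "⟪" a ", " b "⟫" => sympForm m F a b

/-- The standard quadratic form. -/
def Q₁ (x : VV m F) : F := ∑ i, x (Sum.inl i) * x (Sum.inr i)

lemma Q₁_add (x y : VV m F) : Q₁ (x + y) = Q₁ x + Q₁ y + ⟪x, y⟫ := by
  have h2 := two_zero (F := F)
  rw [sympForm_eq_sum, Q₁, Q₁, Q₁, ← Finset.sum_add_distrib, ← Finset.sum_add_distrib]
  refine Finset.sum_congr rfl fun i _ => ?_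
  simp only [Pi.add_apply]
  linear_combination (x (Sum.inl i) * y (Sum.inr i)) * h2

lemma sum_shift (hF : Fintype.card F = 2) (Q : VV m F → F)
    (hQ : ∀ x y, Q (x + y) = Q x + Q y + ⟪x, y⟫) (a : VV m F) :
    ∑ x, chi (Q x + ⟪x, a⟫) = chi (Q a) * ∑ x, chi (Q x) := by
  have h01 := elim_two hF
  have h2 := two_zero (F := F)
  rw [Finset.mul_sum]
  rw [← Equiv.sum_comp (Equiv.addRight a) (fun x => chi (Q a) * chi (Q x))]
  refine Finset.sum_congr rfl fun x _ => ?_
  rw [← chi_add h01 h2]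
  congr 1
  simp only [Equiv.coe_addRight]
  rw [hQ]
  linear_combination (- Q a) * h2

lemma exists_minus_form (hF : Fintype.card F = 2) (hm : 1 ≤ m) :
    ∃ Q₀ : VV m F → F, (∀ x y, Q₀ (x + y) = Q₀ x + Q₀ y + ⟪x, y⟫) ∧
      ∑ x, chi (Q₀ x) = -(2 : ℤ) ^ m := by
  have h01 := elim_two hF
  have h2 := two_zero (F := F)
  have hS := gauss_sq h01 h2 (Q₁ (m := m) (F := F)) (fun x y => ⟪x, y⟫) Q₁_add
    (fun w w' c => fa_add_left _ _ _) (fun c hc => exists_form_one h01 hc)
  have hcard : Fintype.card (VV m F) = 2 ^ (2 * m) := by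
    rw [Fintype.card_fun, hF, Fintype.card_sum, Fintype.card_fin, two_mul]
  rw [hcard] at hS
  have hS' : (∑ x, chi (Q₁ (m := m) (F := F) x)) ^ 2 = ((2 : ℤ) ^ m) ^ 2 := by
    rw [hS, ← pow_mul, mul_comm m 2]
    norm_num
  rcases sq_eq_sq_iff_eq_or_eq_neg.1 hS' with h | h
  · -- plus type: shift by a nonsingular vector
    have hex : ∃ a : VV m F, Q₁ a = 1 := by
      by_contra hc
      push Not at hc
      have h0 : ∀ a : VV m F, Q₁ a = 0 := fun a => (h01 _).resolve_right (hc a)
      let i0 : Fin m := ⟨0, by omega⟩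
      have hne : eL m F i0 ≠ 0 := by
        intro hc
        have := congrFun hc (Sum.inl i0)
        simp [eL] at this
      obtain ⟨x, hx⟩ := exists_form_one h01 hne
      have := Q₁_add x (eL m F i0)
      rw [h0, h0, h0, hx] at this
      simp at this
    obtain ⟨a, ha⟩ := hex
    refine ⟨fun x => Q₁ x + ⟪x, a⟫, ?_, ?_⟩
    · intro x y
      simp only [Q₁_add, fa_add_left]
      ring
    · rw [sum_shift hF _ Q₁_add a, ha, chi_one, h]
      ring
  · exact ⟨Q₁, Q₁_add, h⟩

lemma exists_rep (hF : Fintype.card F = 2) (h : VV m F → F) (hadd : ∀ x y, h (x + y) = h x + h y) :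
    ∃ a : VV m F, ∀ x, h x = ⟪x, a⟫ := by
  have h01 := elim_two hF
  have h0 : h 0 = 0 := by
    have := hadd 0 0
    rw [add_zero] at this
    linear_combination -this
  let L : Module.Dual F (VV m F) :=
    { toFun := h
      map_add' := hadd
      map_smul' := by
        intro c x
        rcases h01 c with rfl | rfl
        · simp [h0]
        · simp }
  refine ⟨((sympBilin m F).toDual sympBilin_nondegenerate).symm L, fun x => ?_⟩
  have := LinearMap.BilinForm.apply_toDual_symm_apply (B := sympBilin m F)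
    (hB := sympBilin_nondegenerate) L x
  rw [fa_comm]
  exact this.symm

/-- Functions on the space, with the contragredient action. -/
def FF (m : ℕ) (F : Type*) : Type _ := VV m F → F

noncomputable instance : MulAction (GG m F) (FF m F) where
  smul g f := fun x => f (ap g⁻¹ x)
  one_smul f := by
    funext x
    show f (ap 1⁻¹ x) = f x
    simp
  mul_smul g h f := by
    funext x
    show f (ap (g * h)⁻¹ x) = f (ap h⁻¹ (ap g⁻¹ x))
    rw [_root_.mul_inv_rev, ap_mul]

lemma smul_FF (g : GG m F) (f : FF m F) (x : VV m F) : (g • f) x = f (ap g⁻¹ x) := rfl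

theorem exists_index (hF : Fintype.card F = 2) (hm : 1 ≤ m) :
    ∃ K : Subgroup (GG m F), K.index = 2 ^ (m - 1) * (2 ^ m - 1) := by
  have h01 := elim_two hF
  have h2 := two_zero (F := F)
  obtain ⟨Q₀, hpol, hS⟩ := exists_minus_form hF hm
  have hSne : ∑ x, chi (Q₀ x) ≠ 0 := by
    rw [hS]
    exact neg_ne_zero.2 (pow_ne_zero _ (by norm_num))
  let Qf : FF m F := Q₀
  refine ⟨MulAction.stabilizer (GG m F) Qf, ?_⟩
  rw [MulAction.index_stabilizer]
  set Φ : VV m F → FF m F := fun a x => Q₀ x + ⟪x, a⟫ with hΦ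
  have horb : MulAction.orbit (GG m F) Qf = Φ '' {a | Q₀ a = 0} := by
    ext f
    constructor
    · rintro ⟨g, rfl⟩
      -- `g • Q₀` differs from `Q₀` by a linear form
      have hadd : ∀ x y, (fun z => Q₀ (ap g⁻¹ z) + Q₀ z) (x + y)
          = (fun z => Q₀ (ap g⁻¹ z) + Q₀ z) x + (fun z => Q₀ (ap g⁻¹ z) + Q₀ z) y := by
        intro x y
        simp only
        rw [ap_add, hpol, hpol, form_ap]
        linear_combination ⟪x, y⟫ * h2
      obtain ⟨a, ha⟩ := exists_rep (m := m) hF (fun z => Q₀ (ap g⁻¹ z) + Q₀ z) hadd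
      have hf : ∀ x, Q₀ (ap g⁻¹ x) = Q₀ x + ⟪x, a⟫ := by
        intro x
        have := ha x
        linear_combination this - Q₀ x * h2
      have hsum : ∑ x, chi (Q₀ (ap g⁻¹ x)) = ∑ x, chi (Q₀ x) := by
        let e : VV m F ≃ VV m F :=
          ⟨fun x => ap g⁻¹ x, fun x => ap g x, fun x => ap_ap_inv g x, fun x => ap_inv_ap g x⟩
        exact Equiv.sum_comp e (fun x => chi (Q₀ x))
      simp only [hf] at hsum
      rw [sum_shift hF Q₀ hpol a] at hsum
      have hchi : chi (Q₀ a) = 1 := by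
        have : (chi (Q₀ a) - 1) * ∑ x, chi (Q₀ x) = 0 := by linarith
        rcases mul_eq_zero.1 this with h | h
        · linarith
        · exact absurd h hSne
      have ha0 : Q₀ a = 0 := by
        rcases h01 (Q₀ a) with h | h
        · exact h
        · rw [h, chi_one] at hchi
          norm_num at hchi
      refine ⟨a, ha0, ?_⟩
      funext x
      exact (hf x).symm
    · rintro ⟨a, ha, rfl⟩
      refine ⟨t a, ?_⟩
      funext x
      show Q₀ (ap (t a)⁻¹ x) = Q₀ x + ⟪x, a⟫
      rw [t_inv, ap_t, hpol]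
      have hQ0 : Q₀ 0 = 0 := by
        have := hpol 0 0
        rw [add_zero, fa_zero_left] at this
        linear_combination -this
      rw [fa_smul_right]
      rcases h01 ⟪x, a⟫ with h | h
      · rw [h]
        simp [hQ0]
      · rw [h, one_smul]
        have ha' : Q₀ a = 0 := ha
        rw [ha']
        simp
  have hinj : Function.Injective Φ := by
    intro a b hab
    by_contra hne
    have hne' : a + b ≠ 0 := by
      intro hc
      apply hne
      have e := vadd_self b
      calc a = a + (b + b) := by rw [e, add_zero]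
        _ = (a + b) + b := by abel
        _ = b := by rw [hc, zero_add]
    obtain ⟨x, hx⟩ := exists_form_one h01 hne'
    have h3 : Q₀ x + ⟪x, a⟫ = Q₀ x + ⟪x, b⟫ := congrFun hab x
    rw [fa_add_right] at hx
    have h4 : ⟪x, a⟫ = ⟪x, b⟫ := add_left_cancel h3
    rw [h4, CharTwo.add_self_eq_zero] at hx
    exact zero_ne_one hx
  rw [horb, Set.ncard_image_of_injective _ hinj]
  have hset : {a : VV m F | Q₀ a = 0} = ↑(Finset.univ.filter fun a : VV m F => Q₀ a = 0) := by
    ext a
    simp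
  rw [hset, Set.ncard_coe_finset]
  have hZ := sum_chi_eq (F := F) (W := VV m F) Q₀
  rw [hS] at hZ
  have hcard : Fintype.card (VV m F) = 2 ^ (2 * m) := by
    rw [Fintype.card_fun, hF, Fintype.card_sum, Fintype.card_fin, two_mul]
  rw [hcard] at hZ
  set z := (Finset.univ.filter fun a : VV m F => Q₀ a = 0).card with hz
  obtain ⟨n, rfl⟩ : ∃ n, m = n + 1 := ⟨m - 1, by omega⟩
  simp only [Nat.add_sub_cancel]
  have e1 : (2 : ℕ) ^ (n + 1) = 2 * 2 ^ n := by ring
  set P : ℕ := 2 ^ n with hP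
  have hP1 : 1 ≤ P := Nat.one_le_two_pow
  have e2 : (2 : ℕ) ^ (2 * (n + 1)) = 4 * P ^ 2 := by
    rw [hP, ← pow_mul, mul_add, pow_add, mul_comm n 2]
    norm_num
    ring
  have e3 : (2 : ℤ) ^ (n + 1) = 2 * (P : ℤ) := by
    rw [hP]
    push_cast
    ring
  have e4 : ((2 : ℕ) ^ (2 * (n + 1)) : ℕ) = 4 * P ^ 2 := e2
  push_cast at hZ
  have e5 : (2 : ℤ) ^ (2 * (n + 1)) = 4 * (P : ℤ) ^ 2 := by
    exact_mod_cast e2
  rw [e3, e5] at hZ
  rw [e1]
  have e6 : (z : ℤ) = 2 * (P : ℤ) ^ 2 - P := by linarith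
  have e7 : P * (2 * P - 1) = 2 * P ^ 2 - P := by
    rw [Nat.mul_sub, mul_one]
    congr 1
    ring
  rw [e7]
  zify [show P ≤ 2 * P ^ 2 by nlinarith]
  exact e6

end Cfsg.Agent.Lib.SpTwo.Exist
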